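import Cfsg.Agent.Lib.OMax.Sub
import Cfsg.Agent.Lib.Orth.Families
import Cfsg.Agent.Lib.Orth.Count

/-!
# Overgroups of the parabolic `2⁶ : L₄(2)` in `O⁺₈(2)`
-/

set_option autoImplicit false

namespace Cfsg.Lib.R11

open Module Cfsg.Lib.Orth QuadraticMap

theorem card_O8 : Nat.card (O (qPlus 4 (ZMod 2))) = 348364800 := by
  rw [card_O_plus (m := 3) (nd_qPlus 4) (by simp) (wittIndex_qPlus 4)]
  simp [Finset.prod_range_succ]

theorem nexc8 : ¬ Exc (qPlus 4 (ZMod 2)) := not_exc_of_card (Or.inr (by simp))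

theorem idx8 : (commutator (O (qPlus 4 (ZMod 2)))).index = 2 := index_commutator_of_even (nd_qPlus 4) nexc8 rfl (by simp)

theorem card_om8 : Nat.card (commutator (O (qPlus 4 (ZMod 2)))) = 174182400 := by
  have := (commutator (O (qPlus 4 (ZMod 2)))).card_mul_index
  rw [idx8, card_O8] at this
  omega

theorem lag_over {W : Submodule (ZMod 2) (Fin 4 ⊕ Fin 4 → ZMod 2)} (hW : Lag (qPlus 4 (ZMod 2)) W)
    {P K : Subgroup (O (qPlus 4 (ZMod 2)))} (hP : P ≤ stab _ W) (c : Nat.card P = 2 ^ 12 * 315) (l : P ≤ K)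
    (k : ¬ 2 ^ 13 ∣ Nat.card K) : K ≤ stab _ W ∨ K = commutator _ := by
  have nd := nd_qPlus (F := ZMod 2) 4
  have r4 : finrank (ZMod 2) W = 4 := by have := hW.2; simp at this; omega
  have sl : stab _ W ≤ commutator (O (qPlus 4 (ZMod 2))) := fun g hg => by
    rw [commutator_eq_ker_dickson nd nexc8 rfl]; exact hW.dickson_of_mem_stab nd hg
  have d1 := Subgroup.card_dvd_of_le sl
  let f : stab (qPlus 4 (ZMod 2)) W →* (W ≃ₗ[ZMod 2] W) := (O _).subtype.comp (res _ W)
  have gl : Nat.card (W ≃ₗ[ZMod 2] W) = 20160 := by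
    rw [← Nat.card_congr ((Matrix.GeneralLinearGroup.toLin' (finBasisOfFinrankEq _ _ r4)).trans
      (LinearMap.GeneralLinearGroup.generalLinearEquiv _ _)).toEquiv, Matrix.card_GL_field]
    simp [Fin.prod_univ_succ]
  have p : IsPGroup 2 f.ker := fun g => ⟨1, Subtype.ext (Subtype.ext (O.ext fun v => by
    have fx : ∀ w ∈ W, g.1.1.1 w = w := fun w hw => congrArg (fun a : W ≃ₗ[ZMod 2] W => (a ⟨w, hw⟩ : _).1) g.2
    have m : g.1.1.1 v - v ∈ W := (hW.perp_eq nd).le (mem_perp.2 fun w hw => by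
      have := O.map_polar g.1.1 w v
      rw [fx w hw] at this
      rw [polar_sub_right, this, sub_self])
    have := fx _ m
    rw [map_sub, sub_eq_iff_eq_add] at this
    change g.1.1.1 (g.1.1.1 v) = v
    rw [this]
    exact funext fun i => (by decide : ∀ a b : ZMod 2, a - b + a = b) _ _))⟩
  obtain ⟨n, hn⟩ := IsPGroup.iff_card.1 p
  have d2 : Nat.card (stab (qPlus 4 (ZMod 2)) W) ∣ 2 ^ n * 20160 := by
    rw [← f.ker.card_mul_index, Subgroup.index_ker, hn]
    exact mul_dvd_mul_left _ (gl ▸ Subgroup.card_subgroup_dvd_card _)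
  obtain ⟨m, hm⟩ := Subgroup.card_dvd_of_le hP
  rw [hm, c] at d1 d2
  rw [card_om8] at d1
  have m1 : m ∣ 135 := Nat.dvd_of_mul_dvd_mul_left (k := 2 ^ 12 * 315) (by norm_num) d1
  have m2 : m ∣ 2 ^ n := by
    rw [mul_comm (2 ^ n)] at d2
    have : 20160 * m ∣ 20160 * 2 ^ n := Dvd.dvd.trans ⟨64, by ring⟩ d2
    exact Nat.dvd_of_mul_dvd_mul_left (by norm_num) this
  have m3 : m = 1 := Nat.eq_one_of_dvd_coprimes (Nat.Coprime.pow_right n (by norm_num)) m1 m2
  have e : P = stab _ W := Subgroup.eq_of_le_of_card_ge hP (by rw [hm, m3, mul_one])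
  refine (OMax.max_singular nd (by simp) hW.1 (fun h => by rw [h, finrank_bot] at r4; omega) (fun u h1 _ h2 => ?_)
    (inf_le_left.trans (e ▸ l))).imp_right fun h => ?_
  · exact absurd ((hW.perp_eq nd).le h1) h2
  · have h1 := Subgroup.index_dvd_of_le h
    have h2 := K.card_mul_index
    rw [idx8] at h1
    rcases (Nat.dvd_prime Nat.prime_two).1 h1 with a | a
    · rw [a, card_O8, mul_one] at h2
      exact absurd (h2 ▸ by norm_num) k
    · rw [a, card_O8] at h2
      exact (Subgroup.eq_of_le_of_card_ge h (by rw [card_om8]; omega)).symm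

end Cfsg.Lib.R11
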