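import Cfsg.Agent.Lib.J4P.Mod

/-! The natural module of `S₆ = Sp₄(2)`: even subsets of six points modulo complements. -/

set_option autoImplicit false
set_option synthInstance.maxSize 4096

namespace Cfsg.Lib.R11.Et

open Equiv Equiv.Perm Cfsg.Lib.J4P

abbrev S6 := Perm (Fin 6)

/-- the images of the six points -/
def dv (i : Fin 6) : N := .mk (0xf08421 >>> (4 * i.val))

/-- the action -/
def μ (s : S6) (n : N) : N := bt 0 n • (dv (s 0) + dv (s 4)) + bt 1 n • (dv (s 1) + dv (s 4)) +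
  bt 2 n • (dv (s 2) + dv (s 4)) + bt 3 n • (dv (s 3) + dv (s 4))

/-- the hyperplane orthogonal to `e1` -/
def P0 (n : N) : Prop := bt 1 n + bt 2 n + bt 3 n = 0

instance instDecP0 (n : N) : Decidable (P0 n) := inferInstanceAs (Decidable (_ = _))

/-- the normal four-group of the stabiliser of `e1` in `A₆` -/
def V4 (s : S6) : Prop := s 0 = 0 ∧ s 4 = 4 ∧ s * s = 1 ∧ sign s = 1

instance instDecV4 (s : S6) : Decidable (V4 s) := inferInstanceAs (Decidable (_ ∧ _))

/-- an even involution -/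
def t0 : S6 := swap 0 1 * swap 2 3

theorem μ_pair : ∀ (s : S6) (i j : Fin 6), μ s (dv i + dv j) = dv (s i) + dv (s j) := by decide +kernel
theorem pairs : ∀ n : N, ∃ i j, dv i + dv j = n := by decide +kernel
theorem μ_mul (s t : S6) (n : N) : μ (s * t) n = μ s (μ t n) := by
  obtain ⟨i, j, rfl⟩ := pairs n
  simp only [μ_pair, mul_apply]
theorem μ_one : ∀ n, μ 1 n = n := by decide +kernel
theorem μ_trans : ∀ n : N, n ≠ 0 → ∃ s : S6, μ s e1 = n ∧ sign s = 1 := by decide +kernel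
theorem μ_all : ∀ s : S6, (∀ n, μ s n = n) → s = 1 := by decide +kernel
theorem inv_cls : ∀ s : S6, s * s = 1 → s ≠ 1 → sign s = 1 → ∃ g, g * s * g⁻¹ = t0 := by decide +kernel
theorem t0_fix : ∀ n, μ t0 n = n → ∃ m, μ t0 m + m = n := by decide +kernel
theorem perp : ∀ n, P0 n → ∃ m, ∃ s : S6, μ s e1 = e1 ∧ μ s m + m = n := by decide +kernel
theorem hyp0 : ∀ n m, ¬ P0 n → ¬ P0 m → P0 (n + m) := by decide +kernel
theorem fix0 : ∀ s : S6, (∀ n, P0 n → μ s n = n) → sign s = 1 → s = 1 := by decide +kernel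
theorem V4.mul : ∀ {s}, V4 s → ∀ {t}, V4 t → V4 (s * t) := by decide +kernel
theorem V4.fix : ∀ {s}, V4 s → μ s e1 = e1 := by decide +kernel
theorem V4.cj : ∀ {s}, V4 s → ∀ {c}, μ c e1 = e1 → V4 (c * s * c⁻¹) := by decide +kernel
theorem V4.of : ∀ {s : S6}, μ s e1 = e1 → sign s = 1 →
    (∀ c : S6, μ c e1 = e1 → sign c = 1 → (c * s * c⁻¹ * s) ^ 3 = 1 → c * s * c⁻¹ * s = 1) → V4 s := by decide +kernel
theorem V4.cen : ∀ n, (∀ s, V4 s → μ s n = n) → n = 0 ∨ n = e1 := by decide +kernel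
theorem card_V4 : (Finset.univ.filter V4).card = 4 := by decide +kernel
theorem card_P0 : (Finset.univ.filter P0).card = 8 := by decide +kernel
theorem cen6 : ∀ s : S6, s ≠ 1 → ∃ i : Fin 5, swap i.castSucc i.succ * s * (swap i.castSucc i.succ)⁻¹ * s⁻¹ ≠ 1 := by decide +kernel

theorem s6_ind {P : S6 → Prop} (h1 : P 1) (h : ∀ i : Fin 5, ∀ s, P s → P (swap i.castSucc i.succ * s)) (s : S6) : P s := by
  have : s ∈ Submonoid.closure (Set.range fun i : Fin 5 => swap i.castSucc i.succ) := by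
    rw [mclosure_swap_castSucc_succ]; trivial
  exact Submonoid.closure_induction_left h1 (fun _ ⟨i, e⟩ _ _ k => e ▸ h i _ k) this

end Cfsg.Lib.R11.Et
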